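import Cfsg.Agent.H455.Cov.Tool
import Cfsg.Agent.H257.El.EngA
import Cfsg.Agent.H257.El.Row.J4
import Cfsg.Agent.H124.Cop.SCLy
import Cfsg.Agent.H215.CC.LyThirtySeven
import Cfsg.Agent.NotCT.Orders

/-!
# S2499: the Lyons group and the fourth Janko group (helper290)

`Ly`: no proper subgroup has order divisible by two of 67, 37, 31; `J₄`: no proper subgroup has order divisible by
two of 43, 37, 29 (the engine of helper257 / helper455).
-/

set_option autoImplicit false

namespace Cfsg.Agent.H290.CovSpor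

open Cfsg Subgroup Cfsg.Agent.OrdDiv Cfsg.Agent.H278.Cov Cfsg.Agent.H455.Cov

/-- the criterion for three primes -/
theorem noTwo_of_primes {T : Type*} [Group T] [Finite T] {a b c : ℕ} (ha : a.Prime) (hb : b.Prime) (hc : c.Prime)
    (hda : a ∣ Nat.card T) (hdb : b ∣ Nat.card T) (hdc : c ∣ Nat.card T) (hab : Bad T a b) (hac : Bad T a c)
    (hbc : Bad T b c) : NoTwo T := by
  obtain ⟨x, hx⟩ := exists_elt ha hda
  obtain ⟨y, hy⟩ := exists_elt hb hdb
  obtain ⟨z, hz⟩ := exists_elt hc hdc
  exact noTwo_of_three_bad hx hy hz hab hac hbc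

theorem noTwo_ly (tab : OrderTable.{0}) (known : H257.El.Known.{0}) {T : Type} [Group T] [Finite T]
    (h : Spor.IsoLy T) : NoTwo T := by
  have hc := NotCT.Orders.ly h
  have h67 : ∀ w : ℕ, w.Prime → 67 ≠ w → ∀ z : T, orderOf z ≠ 67 * w := by
    intro w hw hne
    obtain ⟨e⟩ := h
    exact H257.El.noOrd_of_cent (by norm_num) (H537.Cop.SC.congr e (H124.Cop.SCLy.sc known)) hw hne
  have h37 : ∀ w : ℕ, w.Prime → 37 ≠ w → ∀ z : T, orderOf z ≠ 37 * w := fun w hw hne =>
    H257.El.noOrd_of_cent (by norm_num) (fun x hx => H215.CC.LyThirtySeven.card_centralizer known h hx) hw hne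
  refine noTwo_of_primes (a := 67) (b := 37) (c := 31) (by norm_num) (by norm_num) (by norm_num)
    (by rw [hc]; norm_num) (by rw [hc]; norm_num) (by rw [hc]; norm_num) ?_ ?_ ?_
  · exact bad_of_chk tab known (l := [(2, 8), (3, 7), (5, 6), (7, 1), (11, 1), (31, 1), (37, 1), (67, 1)]) hc
      (by norm_num) (by norm_num) (h67 37 (by norm_num) (by norm_num)) (by decide +kernel)
  · exact bad_of_chk tab known (l := [(2, 8), (3, 7), (5, 6), (7, 1), (11, 1), (31, 1), (37, 1), (67, 1)]) hc
      (by norm_num) (by norm_num) (h67 31 (by norm_num) (by norm_num)) (by decide +kernel)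
  · exact bad_of_chk tab known (l := [(2, 8), (3, 7), (5, 6), (7, 1), (11, 1), (31, 1), (37, 1), (67, 1)]) hc
      (by norm_num) (by norm_num) (h37 31 (by norm_num) (by norm_num)) (by decide +kernel)

theorem noTwo_j4 (tab : OrderTable.{0}) (known : H257.El.Known.{0}) {T : Type} [Group T] [Finite T]
    (h : Spor.IsoJ4 T) : NoTwo T := by
  have hc := NotCT.Orders.j4 h
  have hJ := H337.isOfJankoFourType_of_isoJ4 h
  obtain ⟨e⟩ := h
  have hs : IsSimpleGroup T := e.isSimpleGroup_congr.2 Cfsg.Agent.S1703.result.1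
  have hna : ¬ IsMulCommutative T := by
    intro hm
    let _ : CommGroup T := { (inferInstance : Group T) with mul_comm := fun a b => hm.is_comm.comm a b }
    have h1 : (Nat.card T).Prime := IsSimpleGroup.prime_card
    rw [hc] at h1
    exact absurd h1 (by norm_num)
  obtain ⟨-, -, -, h37, h43⟩ := S5577.result hna hJ
  have f37 : Fact (Nat.Prime 37) := ⟨by norm_num⟩
  have f43 : Fact (Nat.Prime 43) := ⟨by norm_num⟩
  have n43 : ∀ w : ℕ, w.Prime → 43 ≠ w → ∀ z : T, orderOf z ≠ 43 * w := fun w hw hne =>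
    H257.El.noOrd_of_cent (by norm_num) (fun x hx => H257.El.Row.card_cent_of_sylow (by rw [hc]; norm_num)
      (by rw [hc]; norm_num) (fun U => (h43 U).1) hx) hw hne
  have n37 : ∀ w : ℕ, w.Prime → 37 ≠ w → ∀ z : T, orderOf z ≠ 37 * w := fun w hw hne =>
    H257.El.noOrd_of_cent (by norm_num) (fun x hx => H257.El.Row.card_cent_of_sylow (by rw [hc]; norm_num)
      (by rw [hc]; norm_num) (fun U => (h37 U).1) hx) hw hne
  refine noTwo_of_primes (a := 43) (b := 37) (c := 29) (by norm_num) (by norm_num) (by norm_num)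
    (by rw [hc]; norm_num) (by rw [hc]; norm_num) (by rw [hc]; norm_num) ?_ ?_ ?_
  · exact bad_of_chk tab known
      (l := [(2, 21), (3, 3), (5, 1), (7, 1), (11, 3), (23, 1), (29, 1), (31, 1), (37, 1), (43, 1)]) hc
      (by norm_num) (by norm_num) (n43 37 (by norm_num) (by norm_num)) (by decide +kernel)
  · exact bad_of_chk tab known
      (l := [(2, 21), (3, 3), (5, 1), (7, 1), (11, 3), (23, 1), (29, 1), (31, 1), (37, 1), (43, 1)]) hc
      (by norm_num) (by norm_num) (n43 29 (by norm_num) (by norm_num)) (by decide +kernel)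
  · exact bad_of_chk tab known
      (l := [(2, 21), (3, 3), (5, 1), (7, 1), (11, 3), (23, 1), (29, 1), (31, 1), (37, 1), (43, 1)]) hc
      (by norm_num) (by norm_num) (n37 29 (by norm_num) (by norm_num)) (by decide +kernel)

end Cfsg.Agent.H290.CovSpor
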